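import Cfsg.Agent.Lib.Min2E6.Sys
import Cfsg.Agent.Lib.Twisted.E6O

/-! The system of relations in `²E₆(q)`. PLAN.md, paragraph `Inst`. -/

set_option autoImplicit false
set_option linter.unusedSectionVars false
set_option linter.unusedVariables false

namespace Cfsg.Agent.Lib.Min2E6

open Cfsg Lie

/-- The instance: `x r t = ⟨xG ax r t * xG ax (rhoT r) (γ r * φ t), _⟩`. PLAN.md, paragraph `Inst`. -/
theorem exists_sys (K : Type*) [Field K] [Fintype K] {q : ℕ} (hq : IsPrimePow q) (hK : Fintype.card K = q ^ 2) (φ : K ≃+* K) (hφ : ∀ t, φ t = t ^ q) :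
    Nonempty (SysT K φ ↥(twistedE6 K q)) := by
  sorry

/-- The order of the group divides `NN q` (`Twisted.E6O.card_E6`). -/
theorem card_dvd (K : Type*) [Field K] [Fintype K] {q : ℕ} (hq : IsPrimePow q) (hK : Fintype.card K = q ^ 2) : Nat.card ↥(twistedE6 K q) ∣ NN q := by
  sorry

end Cfsg.Agent.Lib.Min2E6
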