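import Cfsg.Agent.Lib.Min2E6.Rn
import Cfsg.Agent.Lib.Min2E6.Ar
import Cfsg.Agent.Lib.Min2E6.Inst
import Cfsg.Agent.Lib.Char.Central

/-! The assembly. -/

set_option autoImplicit false
set_option linter.unusedSectionVars false
set_option linter.unusedVariables false
set_option linter.ambiguousOpen false
set_option linter.style.haveILetI false

namespace Cfsg.Agent.Lib.Min2E6

open Module
open Cfsg Lie
open Cfsg.Agent.Lib.MinE6 (S3 compl3 mv pw gam rt reflB β₀)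

/-- The abstract bound. -/
theorem bound_abs {K : Type*} [Field K] [Fintype K] {φ : K ≃+* K} {Γ : Type*} [Group Γ] [Finite Γ] {V : Type*} [AddCommGroup V] [Module ℂ V] [FiniteDimensional ℂ V] {q : ℕ} (hQ : QF K φ q)
    (S : SysT K φ Γ) (ρ : Representation ℂ Γ V) (ψ : AddChar K ℂ) (hψ : GoodChar φ ψ) (hfix : NoFix S ρ) (hV : Nontrivial V)
    (hd : finrank ℂ V ∣ NN q) : BB q ≤ finrank ℂ V := by
  by_contra hc
  have hlt : finrank ℂ V < BB q := by omega
  have hq : 2 ≤ q := hQ.two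
  obtain ⟨hl, hk⟩ := red (S := S) (ρ := ρ) (ψ := ψ) hQ hψ hfix hV hlt
  rw [hk] at hd hlt
  by_cases hL : LTriv S ρ ψ
  · exact no_dvd0 hq (R_le_four hQ hψ hfix hL hl) hd
  · have h1 := R_large (S := S) (ρ := ρ) hQ hψ hL
    rw [BB_eq hq] at hlt
    have h2 : wr S ρ ψ (clist 0) = Wq q ∨ wr S ρ ψ (clist 0) = Wq q + 1 := by omega
    rcases h2 with h2 | h2
    · rw [h2] at hd
      exact no_dvd1 hq hd
    · rw [h2] at hd
      exact no_dvd2 hq hd

/-- The statement. Compare `MinE6.main`; `ψ t = ψ₁ (t + φ t)`, `ψ₁ 1 ≠ 1`; `φ`: the Frobenius `t ↦ t ^ q` (`Twisted.E6b.exists_φ`); `NoFix`: `S.gen` and irreducibility. -/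
theorem main {K : Type*} [Field K] [Fintype K] (q : ℕ) (hq : IsPrimePow q) (hK : Fintype.card K = q ^ 2) (k : ℕ) (ρ : Representation ℂ (Cfsg.Lie.twistedE6 K q) (Fin k → ℂ)) (hρ : ρ.IsIrreducible) (hk : 2 ≤ k) :
    q * (q ^ 6 - q ^ 3 + 1) * (q ^ 4 + 1) ≤ k := by
  sorry

end Cfsg.Agent.Lib.Min2E6
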